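import Cfsg.Agent.Lib.PLocal.BestOffender
import Cfsg.Agent.Lib.PLocal.Core
import Cfsg.Agent.Lib.FGS.Subnormal

set_option autoImplicit false

namespace CfsgLib.PLocal

open Subgroup Cfsg
open scoped commutatorElement

variable {G : Type*} [Group G] {p : ℕ}

theorem conj_eq_cm_inv_mul (v a : G) : a * v * a⁻¹ = (⁅v, a⁆)⁻¹ * v := by
  simp only [commutatorElement_def]; group

theorem cm_mem_of_norm {V : Subgroup G} {a v : G} (ha : a ∈ normalizer (V : Set G)) (hv : v ∈ V) :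
    ⁅v, a⁆ ∈ V := by
  rw [cm_eq]
  exact V.mul_mem hv (V.inv_mem ((mem_normalizer_iff.mp ha v).mp hv))

/-- `x^n v x^{-n} = d^{-n} v` when `x` fixes `d = [v,x]`. -/
theorem pow_conj_of_fix {x v : G} (h : x * ⁅v, x⁆ * x⁻¹ = ⁅v, x⁆) (n : ℕ) :
    x ^ n * v * (x ^ n)⁻¹ = ((⁅v, x⁆)⁻¹) ^ n * v := by
  induction n with
  | zero => simp
  | succ n ih =>
    have hd : x * (⁅v, x⁆)⁻¹ * x⁻¹ = (⁅v, x⁆)⁻¹ := by
      have := congrArg (fun y => y⁻¹) h
      simpa [mul_assoc] using this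
    have hdn : x * ((⁅v, x⁆)⁻¹) ^ n * x⁻¹ = ((⁅v, x⁆)⁻¹) ^ n := by
      rw [← conj_pow, hd]
    calc x ^ (n + 1) * v * (x ^ (n + 1))⁻¹ = x * (x ^ n * v * (x ^ n)⁻¹) * x⁻¹ := by
          rw [pow_succ']; group
      _ = (x * ((⁅v, x⁆)⁻¹) ^ n * x⁻¹) * (x * v * x⁻¹) := by rw [ih]; group
      _ = ((⁅v, x⁆)⁻¹) ^ n * ((⁅v, x⁆)⁻¹ * v) := by rw [hdn, conj_eq_cm_inv_mul]
      _ = _ := by rw [pow_succ]; group

theorem pow_mem_centralizer_of_fix {V : Subgroup G} {x : G} (hV : IsElementaryAbelian p V)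
    (hx : ∀ v ∈ V, ⁅v, x⁆ ∈ V ∧ x * ⁅v, x⁆ * x⁻¹ = ⁅v, x⁆) :
    x ^ p ∈ centralizer (V : Set G) := by
  refine mem_centralizer_iff.mpr fun v hv => ?_
  obtain ⟨h1, h2⟩ := hx v hv
  have h3 := pow_conj_of_fix h2 p
  rw [inv_pow, elemAb_pow hV h1, inv_one, one_mul] at h3
  calc v * x ^ p = (x ^ p * v * (x ^ p)⁻¹) * x ^ p := by rw [h3]
    _ = x ^ p * v := by group

/-- **S0590**. -/
theorem quadratic_action {V H : Subgroup G} (hV : IsElementaryAbelian p V)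
    (hHV : H ≤ normalizer (V : Set G)) (hq : ⁅⁅V, H⁆, H⁆ = ⊥) :
    ⁅H, H⁆ ≤ centralizer (V : Set G) ∧ ∀ a ∈ H, a ^ p ∈ centralizer (V : Set G) := by
  have hd : ∀ v ∈ V, ∀ a ∈ H, ∀ b ∈ H, b * ⁅v, a⁆ * b⁻¹ = ⁅v, a⁆ := by
    intro v hv a ha b hb
    have : ⁅⁅v, a⁆, b⁆ ∈ (⊥ : Subgroup G) := by
      rw [← hq]
      exact Subgroup.commutator_mem_commutator
        (Subgroup.commutator_mem_commutator hv ha) hb
    have h1 : ⁅v, a⁆ * b = b * ⁅v, a⁆ := commutatorElement_eq_one_iff_mul_comm.mp (mem_bot.mp this)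
    rw [← h1]; group
  have hcm : ∀ v ∈ V, ∀ a ∈ H, ⁅v, a⁆ ∈ V := fun v hv a ha => cm_mem_of_norm (hHV ha) hv
  have hact : ∀ a ∈ H, ∀ b ∈ H, ∀ v ∈ V, a * (b * v * b⁻¹) * a⁻¹ = b * (a * v * a⁻¹) * b⁻¹ := by
    intro a ha b hb v hv
    have e1 : a * (b * v * b⁻¹) * a⁻¹ = (⁅v, b⁆)⁻¹ * ((⁅v, a⁆)⁻¹ * v) := by
      rw [conj_eq_cm_inv_mul v b]
      have := hd v hv b hb a ha
      calc a * ((⁅v, b⁆)⁻¹ * v) * a⁻¹ = (a * ⁅v, b⁆ * a⁻¹)⁻¹ * (a * v * a⁻¹) := by group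
        _ = _ := by rw [this, conj_eq_cm_inv_mul v a]
    have e2 : b * (a * v * a⁻¹) * b⁻¹ = (⁅v, a⁆)⁻¹ * ((⁅v, b⁆)⁻¹ * v) := by
      rw [conj_eq_cm_inv_mul v a]
      have := hd v hv a ha b hb
      calc b * ((⁅v, a⁆)⁻¹ * v) * b⁻¹ = (b * ⁅v, a⁆ * b⁻¹)⁻¹ * (b * v * b⁻¹) := by group
        _ = _ := by rw [this, conj_eq_cm_inv_mul v b]
    rw [e1, e2, ← mul_assoc, ← mul_assoc]
    rw [elemAb_comm hV (V.inv_mem (hcm v hv b hb)) (V.inv_mem (hcm v hv a ha))]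
  constructor
  · rw [Subgroup.commutator_le]
    intro a ha b hb
    refine mem_centralizer_iff.mpr fun v hv => ?_
    -- use `u = a⁻¹ b⁻¹ v b a`
    have hu1 : b⁻¹ * v * b⁻¹⁻¹ ∈ V := (mem_normalizer_iff.mp (hHV (H.inv_mem hb)) v).mp hv
    have hu : a⁻¹ * (b⁻¹ * v * b⁻¹⁻¹) * a⁻¹⁻¹ ∈ V :=
      (mem_normalizer_iff.mp (hHV (H.inv_mem ha)) _).mp hu1
    have h := hact a ha b hb _ hu
    have e1 : b * (a * (a⁻¹ * (b⁻¹ * v * b⁻¹⁻¹) * a⁻¹⁻¹) * a⁻¹) * b⁻¹ = v := by group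
    rw [e1] at h
    have e2 : ⁅a, b⁆ * v * (⁅a, b⁆)⁻¹ =
        a * (b * (a⁻¹ * (b⁻¹ * v * b⁻¹⁻¹) * a⁻¹⁻¹) * b⁻¹) * a⁻¹ := by
      simp only [commutatorElement_def]; group
    have e3 : ⁅a, b⁆ * v * (⁅a, b⁆)⁻¹ = v := e2.trans h
    calc v * ⁅a, b⁆ = (⁅a, b⁆ * v * (⁅a, b⁆)⁻¹) * ⁅a, b⁆ := by rw [e3]
      _ = ⁅a, b⁆ * v := by group
  · intro a ha
    exact pow_mem_centralizer_of_fix hV fun v hv => ⟨hcm v hv a ha, hd v hv a ha a ha⟩

theorem mem_centralizer_zpowers {x a : G} (h : a * x = x * a) :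
    x ∈ centralizer (zpowers a : Set G) := by
  have : zpowers a ≤ centralizer ({x} : Set G) := by
    rw [zpowers_le]
    refine mem_centralizer_iff.mpr fun y hy => ?_
    rw [Set.mem_singleton_iff] at hy
    rw [hy]; exact h.symm
  refine mem_centralizer_iff.mpr fun y hy => ?_
  exact (mem_centralizer_iff.mp (this hy) x rfl).symm

/-- **S0591**. -/
theorem card_le_sq_of_quadratic [Finite G] {V : Subgroup G} (hV : IsElementaryAbelian p V) {a : G}
    (ha : a ∈ normalizer (V : Set G)) (hq : ⁅⁅V, zpowers a⁆, zpowers a⁆ = ⊥) :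
    Nat.card V ≤ Nat.card ↥(V ⊓ centralizer (zpowers a : Set G)) ^ 2 := by
  set C := V ⊓ centralizer (zpowers a : Set G) with hC
  have hcomm : ∀ x ∈ V, ∀ y ∈ V, x * y = y * x := fun x hx y hy => elemAb_comm hV hx hy
  have h := card_le_mul_of_fiber (A := V) (T := C) (K := ⊥) (B := C) bot_le inf_le_left
    (fun v => ⁅v, a⁆) ?_ ?_
  · simpa [sq] using h
  · intro v hv
    refine ⟨cm_mem_of_norm ha hv, mem_centralizer_zpowers ?_⟩
    have : ⁅⁅v, a⁆, a⁆ ∈ (⊥ : Subgroup G) := by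
      rw [← hq]
      exact Subgroup.commutator_mem_commutator
        (Subgroup.commutator_mem_commutator hv (mem_zpowers a)) (mem_zpowers a)
    exact (commutatorElement_eq_one_iff_mul_comm.mp (mem_bot.mp this)).symm
  · intro v hv v' hv' hk
    have h1 : (⁅v', a⁆)⁻¹ * ⁅v, a⁆ = 1 := mem_bot.mp hk
    have h2 : ⁅v, a⁆ = ⁅v', a⁆ := (inv_mul_eq_one.mp h1).symm
    have hav : a * v * a⁻¹ ∈ V := (mem_normalizer_iff.mp ha v).mp hv
    have hav' : a * v' * a⁻¹ ∈ V := (mem_normalizer_iff.mp ha v').mp hv'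
    rw [cm_eq, cm_eq] at h2
    have hx : v'⁻¹ * v ∈ V := V.mul_mem (V.inv_mem hv') hv
    refine ⟨hx, mem_centralizer_zpowers ?_⟩
    -- `a x a⁻¹ = x`
    have h3 : a * (v'⁻¹ * v) * a⁻¹ = v'⁻¹ * v := by
      have e : a * (v'⁻¹ * v) * a⁻¹ = (a * v' * a⁻¹)⁻¹ * (a * v * a⁻¹) := by group
      rw [e]
      calc (a * v' * a⁻¹)⁻¹ * (a * v * a⁻¹)
          = v'⁻¹ * (v' * (a * v' * a⁻¹)⁻¹) * (a * v * a⁻¹) := by group
        _ = v'⁻¹ * (v * (a * v * a⁻¹)⁻¹) * (a * v * a⁻¹) := by rw [h2]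
        _ = v'⁻¹ * v := by group
    calc a * (v'⁻¹ * v) = (a * (v'⁻¹ * v) * a⁻¹) * a := by group
      _ = _ := by rw [h3]

/-- The `K`-closure of `E`. -/
def ncl (K E : Subgroup G) : Subgroup G := closure {x : G | ∃ k ∈ K, ∃ e ∈ E, x = k * e * k⁻¹}

theorem le_ncl (K E : Subgroup G) : E ≤ ncl K E := fun e he =>
  subset_closure ⟨1, K.one_mem, e, he, by simp⟩

theorem ncl_le {K E T : Subgroup G} (h : ∀ k ∈ K, ∀ e ∈ E, k * e * k⁻¹ ∈ T) : ncl K E ≤ T := by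
  rw [ncl, closure_le]
  rintro _ ⟨k, hk, e, he, rfl⟩
  exact h k hk e he

theorem ncl_le_self {K E : Subgroup G} (h : E ≤ K) : ncl K E ≤ K :=
  ncl_le fun k hk e he => K.mul_mem (K.mul_mem hk (h he)) (K.inv_mem hk)

theorem le_normalizer_ncl (K E : Subgroup G) : K ≤ normalizer ((ncl K E : Subgroup G) : Set G) := by
  refine le_normalizer_of_conj_mem fun k hk x hx => ?_
  have : ncl K E ≤ (ncl K E).comap (MulAut.conj k).toMonoidHom := by
    refine ncl_le fun k' hk' e he => ?_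
    refine subset_closure ⟨k * k', K.mul_mem hk hk', e, he, ?_⟩
    simp [MulAut.conj_apply, mul_assoc]
  have := this hx
  simpa [MulAut.conj_apply] using this

theorem conj_commutator_mem {K M N : Subgroup G} (hM : K ≤ normalizer (M : Set G))
    (hN : K ≤ normalizer (N : Set G)) : K ≤ normalizer ((⁅M, N⁆ : Subgroup G) : Set G) := by
  refine le_normalizer_of_conj_mem fun k hk x hx => ?_
  have : ⁅M, N⁆ ≤ (⁅M, N⁆).comap (MulAut.conj k).toMonoidHom := by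
    rw [Subgroup.commutator_le]
    intro m hm n hn
    have hm' := (mem_normalizer_iff.mp (hM hk) m).mp hm
    have hn' := (mem_normalizer_iff.mp (hN hk) n).mp hn
    have e : (MulAut.conj k).toMonoidHom ⁅m, n⁆ = ⁅k * m * k⁻¹, k * n * k⁻¹⁆ := by
      simp only [commutatorElement_def, MulEquiv.toMonoidHom_eq_coe, MonoidHom.coe_coe,
        MulAut.conj_apply]
      group
    rw [Subgroup.mem_comap, e]
    exact Subgroup.commutator_mem_commutator hm' hn'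
  have := this hx
  simpa [MulAut.conj_apply] using this

/-- elements with `[V,x] ≤ T` and normalising `T` -/
def stabT (V T : Subgroup G) : Subgroup G where
  carrier := {x | x ∈ normalizer (T : Set G) ∧ ∀ v ∈ V, ⁅v, x⁆ ∈ T}
  mul_mem' := by
    rintro x y ⟨hx, hxv⟩ ⟨hy, hyv⟩
    refine ⟨mul_mem hx hy, fun v hv => ?_⟩
    have e : ⁅v, x * y⁆ = ⁅v, x⁆ * (x * ⁅v, y⁆ * x⁻¹) := by
      simp only [commutatorElement_def]; group
    rw [e]
    exact T.mul_mem (hxv v hv) ((mem_normalizer_iff.mp hx _).mp (hyv v hv))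
  one_mem' := by
    refine ⟨one_mem _, fun v hv => ?_⟩
    simp
  inv_mem' := by
    rintro x ⟨hx, hxv⟩
    refine ⟨inv_mem hx, fun v hv => ?_⟩
    have e : ⁅v, x⁻¹⁆ = x⁻¹ * (⁅v, x⁆)⁻¹ * x⁻¹⁻¹ := by
      simp only [commutatorElement_def]; group
    rw [e]
    exact (mem_normalizer_iff.mp (inv_mem hx) _).mp (T.inv_mem (hxv v hv))

/-- **S0597**. -/
theorem commutator_subnormal_le_pCore [Finite G] [Fact p.Prime] {V H E₁ E₂ : Subgroup G}
    (hV : IsElementaryAbelian p V) (hHV : H ≤ normalizer (V : Set G))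
    (hf : H ⊓ centralizer (V : Set G) = ⊥) (h₁ : E₁ ≤ H) (h₂ : E₂ ≤ H)
    (hs₁ : (E₁.subgroupOf H).IsSubnormal) (hs₂ : (E₂.subgroupOf H).IsSubnormal)
    (hc : ⁅⁅V, E₁⁆, E₂⁆ = ⊥) : ⁅E₁, E₂⁆ ≤ (pCore p H).map H.subtype := by
  set K := E₁ ⊔ E₂ with hK
  have hKH : K ≤ H := sup_le h₁ h₂
  set W := ⁅V, E₁⁆ with hW
  have hWV : W ≤ V := by
    rw [hW, Subgroup.commutator_le]
    intro v hv e he
    exact cm_mem_of_norm (hHV (h₁ he)) hv
  have hE2W : ∀ w ∈ W, ∀ e ∈ E₂, w * e = e * w := by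
    intro w hw e he
    have : ⁅w, e⁆ ∈ (⊥ : Subgroup G) := by
      rw [← hc]; exact Subgroup.commutator_mem_commutator hw he
    exact commutatorElement_eq_one_iff_mul_comm.mp (mem_bot.mp this)
  have hKW : K ≤ normalizer (W : Set G) := by
    refine sup_le ?_ ?_
    · refine le_normalizer_of_conj_mem fun a ha w hw => ?_
      rw [conj_eq_cm_inv_mul]
      exact W.mul_mem (W.inv_mem (Subgroup.commutator_mem_commutator (hWV hw) ha)) hw
    · refine le_normalizer_of_conj_mem fun a ha w hw => ?_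
      have : a * w * a⁻¹ = w := by rw [← hE2W w hw a ha]; group
      rwa [this]
  set N := ncl K E₂ with hN
  have hNK : N ≤ K := ncl_le_self le_sup_right
  have hKN : K ≤ normalizer (N : Set G) := le_normalizer_ncl K E₂
  have hNW : N ≤ centralizer (W : Set G) := by
    refine ncl_le fun k hk e he => mem_centralizer_iff.mpr fun w hw => ?_
    have h1 : k⁻¹ * w * k⁻¹⁻¹ ∈ W := (mem_normalizer_iff.mp (hKW (K.inv_mem hk)) w).mp hw
    have h2 := hE2W _ h1 e he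
    calc w * (k * e * k⁻¹) = k * ((k⁻¹ * w * k⁻¹⁻¹) * e) * k⁻¹ := by group
      _ = k * (e * (k⁻¹ * w * k⁻¹⁻¹)) * k⁻¹ := by rw [h2]
      _ = _ := by group
  set T := V ⊓ centralizer (N : Set G) with hT
  have hWT : W ≤ T := fun w hw => ⟨hWV hw, mem_centralizer_iff.mpr fun n hn =>
    (mem_centralizer_iff.mp (hNW hn) w hw).symm⟩
  have hKT : K ≤ normalizer (T : Set G) := by
    refine le_normalizer_of_conj_mem fun k hk t ht => ?_
    refine ⟨(mem_normalizer_iff.mp (hHV (hKH hk)) t).mp ht.1, ?_⟩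
    have := le_normalizer_centralizer hKN hk
    exact (mem_normalizer_iff.mp this t).mp ht.2
  set M := ncl K E₁ with hM
  have hMK : M ≤ K := ncl_le_self le_sup_left
  have hKM : K ≤ normalizer (M : Set G) := le_normalizer_ncl K E₁
  have hMS : M ≤ stabT V T := by
    refine ncl_le fun k hk e he => ?_
    have heK : e ∈ K := mem_sup_left he
    refine ⟨hKT (K.mul_mem (K.mul_mem hk heK) (K.inv_mem hk)), fun v hv => ?_⟩
    have hv' : k⁻¹ * v * k⁻¹⁻¹ ∈ V := (mem_normalizer_iff.mp (hHV (hKH (K.inv_mem hk))) v).mp hv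
    have e' : ⁅v, k * e * k⁻¹⁆ = k * ⁅k⁻¹ * v * k⁻¹⁻¹, e⁆ * k⁻¹ := by
      simp only [commutatorElement_def]; group
    rw [e']
    exact (mem_normalizer_iff.mp (hKT hk) _).mp (hWT (Subgroup.commutator_mem_commutator hv' he))
  set X := ⁅M, N⁆ with hX
  have hXK : X ≤ K := by
    rw [hX, Subgroup.commutator_le]
    intro m hm n hn
    rw [commutatorElement_def]
    exact K.mul_mem (K.mul_mem (K.mul_mem (hMK hm) (hNK hn)) (K.inv_mem (hMK hm))) (K.inv_mem (hNK hn))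
  have hXprop : X ≤ quadSub V T := by
    rw [hX, Subgroup.commutator_le]
    intro m hm n hn
    have h1 : ⁅m, n⁆ ∈ N := by
      rw [commutatorElement_def]
      exact N.mul_mem ((mem_normalizer_iff.mp (hKN (hMK hm)) n).mp hn) (N.inv_mem hn)
    have h2 : ⁅m, n⁆ ∈ M := by
      have e : ⁅m, n⁆ = m * (n * m⁻¹ * n⁻¹) := by
        simp only [commutatorElement_def]; group
      rw [e]
      exact M.mul_mem hm ((mem_normalizer_iff.mp (hKM (hNK hn)) _).mp (M.inv_mem hm))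
    refine ⟨mem_centralizer_iff.mpr fun t ht => ?_, fun v hv => (hMS h2).2 v hv⟩
    exact (mem_centralizer_iff.mp ht.2 _ h1).symm
  have hXpow : ∀ x ∈ X, x ^ p = 1 := by
    intro x hx
    have h1 : x ^ p ∈ centralizer (V : Set G) := by
      refine pow_mem_centralizer_of_fix hV fun v hv => ?_
      have h2 := (hXprop hx).2 v hv
      have h3 := (hXprop hx).1
      refine ⟨h2.1, ?_⟩
      rw [← mem_centralizer_iff.mp h3 _ h2]; group
    have h2 : x ^ p ∈ H ⊓ centralizer (V : Set G) := ⟨H.pow_mem (hKH (hXK hx)) p, h1⟩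
    rw [hf] at h2
    exact mem_bot.mp h2
  have hXp : IsPGroup p X := by
    intro x
    refine ⟨1, Subtype.ext ?_⟩
    simpa using hXpow x.1 x.2
  have hKX : K ≤ normalizer (X : Set G) := conj_commutator_mem hKM hKN
  -- subnormality in `H`
  have hKs : (K.subgroupOf H).IsSubnormal := by
    have e : K.subgroupOf H = E₁.subgroupOf H ⊔ E₂.subgroupOf H := by
      apply le_antisymm
      · rintro ⟨x, hxH⟩ hx
        have hx' : x ∈ E₁ ⊔ E₂ := hx
        have : (E₁ ⊔ E₂) ≤ (E₁.subgroupOf H ⊔ E₂.subgroupOf H).map H.subtype := by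
          refine sup_le (fun e he => ?_) (fun e he => ?_)
          · exact ⟨⟨e, h₁ he⟩, mem_sup_left (by simpa [mem_subgroupOf] using he), rfl⟩
          · exact ⟨⟨e, h₂ he⟩, mem_sup_right (by simpa [mem_subgroupOf] using he), rfl⟩
        obtain ⟨y, hy, hye⟩ := this hx'
        have : y = ⟨x, hxH⟩ := Subtype.ext hye
        rwa [← this]
      · exact sup_le (subgroupOf_mono H le_sup_left) (subgroupOf_mono H le_sup_right)
    rw [e]
    exact CfsgLib.FGS.IsSubnormal_sup' hs₁ hs₂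
  have hXH : X ≤ H := hXK.trans hKH
  have h1 : X.subgroupOf H ≤ pCore p H := by
    refine le_pCore_of_subnormal hKs ?_ (subgroupOf_mono H hXK) ?_
    · intro x
      refine ⟨1, Subtype.ext (Subtype.ext ?_)⟩
      have hx := x.2
      rw [mem_subgroupOf] at hx
      simpa using hXpow _ hx
    · intro k hk
      rw [mem_subgroupOf] at hk
      have hk' : (k : G) ∈ normalizer (X : Set G) := hKX hk
      rw [mem_normalizer_iff]
      intro y
      rw [mem_subgroupOf, mem_subgroupOf]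
      exact mem_normalizer_iff.mp hk' _
  have h2 : ⁅E₁, E₂⁆ ≤ X := Subgroup.commutator_mono (le_ncl K E₁) (le_ncl K E₂)
  intro x hx
  have hxX := h2 hx
  exact ⟨⟨x, hXH hxX⟩, h1 (by simpa [mem_subgroupOf] using hxX), rfl⟩

end CfsgLib.PLocal
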