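import Cfsg.Agent.Lib.PLocal.ThompsonIn

set_option autoImplicit false

namespace CfsgLib.PLocal

open Subgroup Cfsg

universe u

variable {S S' H : Type u} [Group S] [Group S'] [Group H] {p : ℕ}

theorem omegaCenterThompson_map_equiv [Finite S] (e : S ≃* S') :
    (omegaCenterThompson p S).map e.toMonoidHom = omegaCenterThompson p S' := by
  have : Finite S' := Finite.of_equiv S e.toEquiv
  have h := omegaOne_center_map (p := p) e.toMonoidHom (U := thompsonSubgroup p S)
    (fun _ _ _ _ hxy => e.injective hxy)
  rw [thompson_map_equiv] at h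
  exact h.symm

theorem isStableEmbedding_comp [Finite S] (η : S ≃* S') {τ : S →* H}
    (hτ : IsStableEmbedding p τ) : IsStableEmbedding p (τ.comp η.symm.toMonoidHom) := by
  have : Finite S' := Finite.of_equiv S η.toEquiv
  obtain ⟨h1, h2, ⟨P, hP⟩, h4, h5, h6⟩ := hτ
  refine ⟨h1.comp η.symm.injective, h2, ⟨P, ?_⟩, h4, ?_, ?_⟩
  · rw [hP, MonoidHom.range_comp, (MonoidHom.range_eq_top (f := η.symm.toMonoidHom)).mpr η.symm.surjective]
    rw [← MonoidHom.range_eq_map]
  · rw [← Subgroup.map_map, thompson_map_equiv]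
    exact h5
  · intro V _ hV
    refine h6 V ?_
    rw [← Subgroup.map_map, omegaCenterThompson_map_equiv] at hV
    exact hV

theorem omegaOne_center_le_map (η : S ≃* S') :
    omegaOne p (center S) ≤ (omegaOne p (center S')).comap η.toMonoidHom := by
  rw [omegaOne, closure_le]
  rintro x ⟨hx, hp⟩
  refine subset_closure ⟨?_, by
    show (η x) ^ p = 1
    rw [← map_pow, hp, map_one]⟩
  rw [mem_center_iff] at hx ⊢
  intro y
  obtain ⟨z, rfl⟩ := η.surjective y
  show η z * η x = η x * η z
  rw [← map_mul, ← map_mul, hx z]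

theorem stableNormalClosure_map_le [Finite S] (η : S ≃* S') :
    (stableNormalClosure p S).map η.toMonoidHom ≤ stableNormalClosure p S' := by
  rintro _ ⟨x, hx, rfl⟩
  rw [stableNormalClosure, mem_sInf]
  intro W' hW'
  have hle : stableNormalClosure p S ≤ W'.comap η.toMonoidHom := by
    refine sInf_le ⟨(omegaOne_center_le_map η).trans (Subgroup.comap_mono hW'.1), ?_⟩
    intro K _ τ hτ
    have h := hW'.2 K (τ.comp η.symm.toMonoidHom) (isStableEmbedding_comp η hτ)
    have e : (W'.comap η.toMonoidHom).map τ = W'.map (τ.comp η.symm.toMonoidHom) := by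
      ext x
      constructor
      · rintro ⟨y, hy, rfl⟩
        exact ⟨η y, hy, by simp⟩
      · rintro ⟨y, hy, rfl⟩
        exact ⟨η.symm y, by simpa using hy, rfl⟩
    rw [e]
    exact h
  exact hle hx

theorem stableNormalClosure_map [Finite S] (η : S ≃* S') :
    (stableNormalClosure p S).map η.toMonoidHom = stableNormalClosure p S' := by
  have : Finite S' := Finite.of_equiv S η.toEquiv
  apply le_antisymm (stableNormalClosure_map_le η)
  have h := stableNormalClosure_map_le (p := p) η.symm
  intro x hx
  exact ⟨η.symm x, h ⟨x, hx, rfl⟩, by simp⟩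

theorem omegaOne_center_le_omegaCenterThompson [Finite S] :
    omegaOne p (center S) ≤ omegaCenterThompson p S := by
  rw [omegaOne, closure_le]
  rintro x ⟨hx, hp⟩
  refine subset_closure ⟨⟨?_, ?_⟩, hp⟩
  · obtain ⟨A, hA⟩ := exists_max (G := S) (p := p)
    exact le_thompson_of_mem hA (mem_of_commute_of_pow hA (fun a _ => ((mem_center_iff.mp hx) a)) hp)
  · exact mem_centralizer_iff.mpr fun y _ => ((mem_center_iff.mp hx) y)

theorem omegaCenterThompson_map_normal [Finite S] [Finite H] {τ : S →* H}
    (hτ : IsStableEmbedding p τ) : ((omegaCenterThompson p S).map τ).Normal := by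
  obtain ⟨h1, -, -, -, h5, -⟩ := hτ
  have e := omegaOne_center_map (p := p) τ (U := thompsonSubgroup p S) (fun _ _ _ _ hxy => h1 hxy)
  rw [omegaCenterThompson, ← e]
  set J := (thompsonSubgroup p S).map τ with hJ
  constructor
  intro x hx g
  have : omegaOne p (J ⊓ centralizer (J : Set H)) ≤
      (omegaOne p (J ⊓ centralizer (J : Set H))).comap (MulAut.conj g).toMonoidHom := by
    rw [omegaOne, closure_le]
    rintro y ⟨⟨hy1, hy2⟩, hp⟩
    change g * y * g⁻¹ ∈ omegaOne p _
    refine subset_closure ⟨⟨h5.conj_mem y hy1 g, ?_⟩, ?_⟩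
    · refine mem_centralizer_iff.mpr fun z hz => ?_
      have hz' : g⁻¹ * z * g⁻¹⁻¹ ∈ J := h5.conj_mem z hz g⁻¹
      have h2 := mem_centralizer_iff.mp hy2 _ hz'
      calc z * (g * y * g⁻¹) = g * ((g⁻¹ * z * g⁻¹⁻¹) * y) * g⁻¹ := by group
        _ = g * (y * (g⁻¹ * z * g⁻¹⁻¹)) * g⁻¹ := by rw [h2]
        _ = _ := by group
    · rw [conj_pow, hp]; simp
  have := this hx
  simpa [MulAut.conj_apply] using this

/-- **S0622**. -/
theorem stableNormalClosure_basic [Finite S] [Fact p.Prime] (hS : IsPGroup p S) :
    (stableNormalClosure p S).Characteristic ∧ omegaOne p (center S) ≤ stableNormalClosure p S ∧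
      stableNormalClosure p S ≤ omegaCenterThompson p S ∧
      (Nontrivial S → stableNormalClosure p S ≠ ⊥) ∧
      ∀ (S' : Type u) [Group S'] (η : S ≃* S'),
        (stableNormalClosure p S).map η.toMonoidHom = stableNormalClosure p S' := by
  have hle : omegaOne p (center S) ≤ stableNormalClosure p S := le_sInf fun W hW => hW.1
  refine ⟨?_, hle, ?_, ?_, fun S' _ η => stableNormalClosure_map η⟩
  · rw [Subgroup.characteristic_iff_map_eq]
    exact fun ϕ => stableNormalClosure_map ϕ
  · refine sInf_le ⟨omegaOne_center_le_omegaCenterThompson, fun K _ τ hτ => ?_⟩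
    have : Finite K := hτ.2.1
    exact omegaCenterThompson_map_normal hτ
  · intro hnt hbot
    have hc := hS.center_nontrivial
    obtain ⟨x, hx⟩ := exists_prime_orderOf_dvd_card' (G := center S) p (by
      obtain ⟨k, hk⟩ := IsPGroup.iff_card.mp (hS.to_subgroup (center S))
      have hk1 : 1 < Nat.card (center S) := Finite.one_lt_card
      rw [hk] at hk1 ⊢
      have : k ≠ 0 := by
        rintro rfl
        simp at hk1
      exact dvd_pow_self p this)
    have hx1 : (x : S) ^ p = 1 := by
      have := pow_orderOf_eq_one x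
      rw [hx] at this
      simpa using congrArg Subtype.val this
    have hmem : (x : S) ∈ stableNormalClosure p S := hle (subset_closure ⟨x.2, hx1⟩)
    rw [hbot, mem_bot] at hmem
    have : x = 1 := Subtype.ext hmem
    rw [this, orderOf_one] at hx
    exact (Fact.out : p.Prime).one_lt.ne hx

end CfsgLib.PLocal
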